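import Mathlib

/-!
Square matrices over the field with two elements, coded by rows of bits.
-/

set_option autoImplicit false

namespace CfsgLib.CosetEnum.BitMat

/-- a bit as an element of `ZMod 2` -/
def bit (r k : ℕ) : ZMod 2 := bif r.testBit k then 1 else 0

/-- the sum of the rows selected by the bits of `r` -/
def comb : ℕ → List ℕ → ℕ
  | _, [] => 0
  | r, b :: bs => (bif r.testBit 0 then b else 0) ^^^ comb (r >>> 1) bs

theorem bit_xor (x y k : ℕ) : bit (x ^^^ y) k = bit x k + bit y k := by
  simp only [bit, Nat.testBit_xor]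
  cases x.testBit k <;> cases y.testBit k <;> decide

theorem bit_zero (k : ℕ) : bit 0 k = 0 := by simp [bit]

theorem comb_zero : ∀ B : List ℕ, comb 0 B = 0 := by
  intro B
  induction B with
  | nil => rfl
  | cons b bs ih => simp [comb, ih]

theorem bit_comb : ∀ (B : List ℕ) (r k : ℕ),
    bit (comb r B) k = ∑ j ∈ Finset.range B.length, bit r j * bit (B.getD j 0) k := by
  intro B
  induction B with
  | nil => intro r k; simp [comb, bit_zero]
  | cons b bs ih =>
    intro r k
    rw [comb, bit_xor, ih, List.length_cons, Finset.sum_range_succ']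
    rw [add_comm]
    congr 1
    · refine Finset.sum_congr rfl fun j _ => ?_
      simp [bit, Nat.testBit_shiftRight, Nat.add_comm]
    · cases h : r.testBit 0 <;> simp [bit, h]

/-- the matrix of a list of rows -/
def toM (n : ℕ) (A : List ℕ) : Matrix (Fin n) (Fin n) (ZMod 2) :=
  Matrix.of fun i j => bit (A.getD i 0) j

/-- product of coded matrices -/
def mulC (A B : List ℕ) : List ℕ := A.map fun r => comb r B

theorem length_mulC (A B : List ℕ) : (mulC A B).length = A.length := List.length_map ..

theorem toM_mulC {n : ℕ} (A : List ℕ) {B : List ℕ} (hB : B.length = n) :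
    toM n (mulC A B) = toM n A * toM n B := by
  ext i j
  rw [Matrix.mul_apply]
  simp only [toM, Matrix.of_apply, mulC]
  rw [show (A.map fun r => comb r B).getD (i : ℕ) 0 = comb (A.getD (i : ℕ) 0) B by
    conv_lhs => rw [← comb_zero B]
    rw [List.getD_map], bit_comb, hB, ← Fin.sum_univ_eq_sum_range]

/-- the identity -/
def oneC (n : ℕ) : List ℕ := (List.range n).map fun i => 1 <<< i

theorem toM_oneC (n : ℕ) : toM n (oneC n) = 1 := by
  ext i j
  have h : (oneC n).getD (i : ℕ) 0 = 1 <<< (i : ℕ) := by
    simp [oneC, List.getD_eq_getElem?_getD, List.getElem?_map, List.getElem?_range i.2]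
  simp only [toM, Matrix.of_apply, h, bit, Matrix.one_apply]
  by_cases hij : i = j
  · subst hij; simp [Nat.one_shiftLeft, Nat.testBit_two_pow_self]
  · rw [Nat.one_shiftLeft, Nat.testBit_two_pow_of_ne (fun e => hij (Fin.ext e)), if_neg hij]; rfl

/-- the code of a product of coded matrices -/
def prodC (n : ℕ) (c : ℕ → List ℕ) : List ℕ → List ℕ
  | [] => oneC n
  | x :: w => mulC (c x) (prodC n c w)

theorem length_prodC {n : ℕ} (c : ℕ → List ℕ) :
    ∀ w : List ℕ, (∀ x ∈ w, (c x).length = n) → (prodC n c w).length = n := by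
  intro w
  induction w with
  | nil => intro _; simp [prodC, oneC]
  | cons x w ih => intro h; rw [prodC, length_mulC]; exact h x List.mem_cons_self

theorem toM_prodC {n : ℕ} (c : ℕ → List ℕ) (m : ℕ → Matrix (Fin n) (Fin n) (ZMod 2)) :
    ∀ w : List ℕ, (∀ x ∈ w, (c x).length = n ∧ toM n (c x) = m x) →
      toM n (prodC n c w) = (w.map m).prod := by
  intro w
  induction w with
  | nil => intro _; simp [prodC, toM_oneC]
  | cons x w ih =>
    intro h
    have hw : ∀ y ∈ w, (c y).length = n ∧ toM n (c y) = m y := fun y hy =>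
      h y (List.mem_cons_of_mem _ hy)
    rw [prodC, toM_mulC _ (length_prodC c w fun y hy => (hw y hy).1), ih hw,
      (h x List.mem_cons_self).2, List.map_cons, List.prod_cons]

end CfsgLib.CosetEnum.BitMat
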