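import Cfsg.Agent.CosetEnum.Suz.Sub
import Cfsg.Agent.CosetEnum.Suz.G2.BitMat
import Cfsg.Agent.CosetEnum.Suz.G2.Field
import Cfsg.Agent.CosetEnum.Suz.G2.Data
import Cfsg.Prelude.Def_ChevG2
import Cfsg.Agent.Eq.Def_ChevG2

/-!
Six elements of the Chevalley group of type G₂ over four elements satisfying the relations of
the first six generators of the Suzuki group.
-/

set_option autoImplicit false
set_option maxHeartbeats 200000

namespace CfsgLib.CosetEnum.Suz.G2

open CfsgLib.CosetEnum.BitMat

/-- the coordinates -/
abbrev I : Type := Cfsg.Lie.ChevalleyDatum.Idx Cfsg.Lie.chevG2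

/-- coordinates after restriction of scalars -/
def e : I × Fin 2 ≃ Fin 28 :=
  ((finSumFinEquiv.trans (finCongr (show 2 + 12 = 14 from rfl))).prodCongr (Equiv.refl _)).trans
    finProdFinEquiv

/-- restriction of scalars, for any coordinates -/
noncomputable def flatten {J : Type} [Fintype J] [DecidableEq J] (f : J × Fin 2 ≃ Fin 28) :
    Matrix J J F4 →+* Matrix (Fin 28) (Fin 28) (ZMod 2) where
  toFun M := (Matrix.comp J J (Fin 2) (Fin 2) (ZMod 2) (M.map F4.rho)).submatrix f.symm f.symm
  map_one' := by
    rw [show ((1 : Matrix J J F4).map F4.rho) = 1 from map_one (F4.rho.mapMatrix (m := J)),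
      show Matrix.comp J J (Fin 2) (Fin 2) (ZMod 2) 1 = 1 from
        map_one (Matrix.compRingEquiv J (Fin 2) (ZMod 2)), Matrix.submatrix_one_equiv]
  map_zero' := by
    ext i j
    simp
  map_add' M N := by
    ext i j
    simp [map_add]
  map_mul' M N := by
    rw [show (M * N).map F4.rho = M.map F4.rho * N.map F4.rho from
        map_mul (F4.rho.mapMatrix (m := J)) M N,
      show Matrix.comp J J (Fin 2) (Fin 2) (ZMod 2) (M.map F4.rho * N.map F4.rho) =
          Matrix.comp J J (Fin 2) (Fin 2) (ZMod 2) (M.map F4.rho) *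
            Matrix.comp J J (Fin 2) (Fin 2) (ZMod 2) (N.map F4.rho) from
        map_mul (Matrix.compRingEquiv J (Fin 2) (ZMod 2)) _ _, Matrix.submatrix_mul_equiv]

theorem flatten_apply {J : Type} [Fintype J] [DecidableEq J] (f : J × Fin 2 ≃ Fin 28)
    (M : Matrix J J F4) (i j : Fin 28) :
    flatten f M i j = F4.rho (M (f.symm i).1 (f.symm j).1) (f.symm i).2 (f.symm j).2 := rfl

theorem flatten_injective {J : Type} [Fintype J] [DecidableEq J] (f : J × Fin 2 ≃ Fin 28) :
    Function.Injective (flatten f) := by
  intro M N h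
  ext a b
  refine F4.rho_injective (Matrix.ext fun p q => ?_)
  have := congrArg (fun X : Matrix (Fin 28) (Fin 28) (ZMod 2) => X (f (a, p)) (f (b, q))) h
  simpa [flatten_apply] using this

/-- restriction of scalars to the field with two elements -/
noncomputable def flat : Matrix I I F4 →+* Matrix (Fin 28) (Fin 28) (ZMod 2) := flatten e

theorem flat_apply (M : Matrix I I F4) (i j : Fin 28) :
    flat M i j = F4.rho (M (e.symm i).1 (e.symm j).1) (e.symm i).2 (e.symm j).2 :=
  flatten_apply e M i j

theorem flat_injective : Function.Injective flat := flatten_injective e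

/-- the root of a letter -/
def root (k : ℕ) : Fin Cfsg.Lie.chevG2.nroots :=
  Fin.ofNat 12 (k / 2)

/-- the parameter of a letter -/
def param (k : ℕ) : F4 := if k % 2 = 0 then F4.one else F4.om

theorem roots_ok : usedRoots.all (fun k => (List.finRange 28).all fun i => decide (∀ j : Fin 28,
    F4.rho (Cfsg.Lie.chevG2.xMat F4 (root k) (param k) (e.symm i).1 (e.symm j).1) (e.symm i).2
      (e.symm j).2 = toM 28 (rootC k) i j)) = true := by
  decide +kernel

theorem flat_root {k : ℕ} (hk : k ∈ usedRoots) :
    flat (Cfsg.Lie.chevG2.xMat F4 (root k) (param k)) = toM 28 (rootC k) :=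
  Matrix.ext fun i j => (flat_apply _ i j).trans
    (of_decide_eq_true (List.all_eq_true.1 (List.all_eq_true.1 roots_ok k hk) i
      (List.mem_finRange i)) j)

theorem root_length : usedRoots.all (fun k => (rootC k).length == 28 &&
    mulC (rootC k) (rootC k) == oneC 28) = true := by decide +kernel

theorem xMat_sq {k : ℕ} (hk : k ∈ usedRoots) :
    Cfsg.Lie.chevG2.xMat F4 (root k) (param k) * Cfsg.Lie.chevG2.xMat F4 (root k) (param k) = 1 := by
  have := List.all_eq_true.1 root_length k hk
  simp only [Bool.and_eq_true, beq_iff_eq] at this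
  refine flat_injective ?_
  rw [map_mul, map_one, flat_root hk, ← toM_mulC _ this.1, this.2, toM_oneC]

/-- the unit of a letter -/
def rootUnit (k : ℕ) : GL I F4 :=
  if h : k ∈ usedRoots then
    ⟨Cfsg.Lie.chevG2.xMat F4 (root k) (param k), Cfsg.Lie.chevG2.xMat F4 (root k) (param k),
      xMat_sq h, xMat_sq h⟩
  else 1

theorem rootUnit_mem (k : ℕ) : rootUnit k ∈ Cfsg.Lie.chevG2.group F4 := by
  unfold rootUnit
  split
  · exact Subgroup.subset_closure ⟨root k, param k, rfl⟩
  · exact one_mem _

/-- the group elements of the root letters -/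
def rootElt (k : ℕ) : Cfsg.Lie.chevG2.group F4 := ⟨rootUnit k, rootUnit_mem k⟩

/-- the six images -/
noncomputable def img (x : ℕ) : Cfsg.Lie.chevG2.group F4 := gword rootElt (imgW x)

/-- the flattened matrix of a group element -/
noncomputable def flatHom : Cfsg.Lie.chevG2.group F4 →* Matrix (Fin 28) (Fin 28) (ZMod 2) :=
  flat.toMonoidHom.comp ((Units.coeHom _).comp (Cfsg.Lie.chevG2.group F4).subtype)

theorem flatHom_injective : Function.Injective flatHom := fun a b h =>
  Subtype.ext (Units.ext (flat_injective h))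

theorem flatHom_gword {H : Type*} [Monoid H] (φ : Cfsg.Lie.chevG2.group F4 →* H)
    (g : ℕ → Cfsg.Lie.chevG2.group F4) (w : List ℕ) :
    φ (gword g w) = (w.map fun x => φ (g x)).prod := by
  rw [gword, map_list_prod, List.map_map]
  rfl

theorem flat_rootElt {k : ℕ} (hk : k ∈ usedRoots) : flatHom (rootElt k) = toM 28 (rootC k) := by
  rw [← flat_root hk]
  show flat ((rootUnit k : GL I F4) : Matrix I I F4) = _
  rw [rootUnit, dif_pos hk]

theorem img_ok : (List.range 6).all (fun x => (imgW x).all (fun k => usedRoots.contains k) &&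
    prodC 28 rootC (imgW x) == imgC x && (imgC x).length == 28) = true := by decide +kernel

theorem flat_img {x : ℕ} (hx : x < 6) : flatHom (img x) = toM 28 (imgC x) := by
  have h := List.all_eq_true.1 img_ok x (List.mem_range.2 hx)
  simp only [Bool.and_eq_true, beq_iff_eq, List.all_eq_true, List.contains_iff_mem] at h
  rw [img, flatHom_gword, ← h.1.2]
  refine (toM_prodC rootC (fun k => flatHom (rootElt k)) _ fun k hk => ?_).symm
  have hl := List.all_eq_true.1 root_length k (h.1.1 k hk)
  simp only [Bool.and_eq_true, beq_iff_eq] at hl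
  exact ⟨hl.1, (flat_rootElt (h.1.1 k hk)).symm⟩

theorem rel_ok : Tab.relWords.all (fun w => !(w.all fun x => x.blt 6) ||
    prodC 28 imgC w == oneC 28) = true := by decide +kernel

theorem sixRels_img : SixRels img := ⟨fun w hw hx => by
  have h := List.all_eq_true.1 rel_ok w hw
  have hall : (w.all fun x => x.blt 6) = true := List.all_eq_true.2 fun x hxw => by
    simp only [Nat.blt, Nat.ble_eq]; exact hx x hxw
  rw [hall, Bool.not_true, Bool.false_or, beq_iff_eq] at h
  refine flatHom_injective ?_
  rw [map_one, flatHom_gword, ← toM_oneC, ← h]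
  refine (toM_prodC imgC (fun x => flatHom (img x)) w fun x hxw => ⟨?_, (flat_img (hx x hxw)).symm⟩).symm
  have h' := List.all_eq_true.1 img_ok x (List.mem_range.2 (hx x hxw))
  simp only [Bool.and_eq_true, beq_iff_eq] at h'
  exact h'.2⟩

theorem img_zero_ne : img 0 ≠ 1 := by
  intro h
  have h1 : toM 28 (imgC 0) = 1 := by rw [← flat_img (by omega : 0 < 6), h, map_one]
  have hex : (List.finRange 28).all (fun i => decide (∀ j : Fin 28,
      toM 28 (imgC 0) i j = toM 28 (oneC 28) i j)) = false := by decide +kernel
  rw [← Bool.not_eq_true, List.all_eq_true] at hex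
  exact hex fun i _ => decide_eq_true fun j => by rw [h1, toM_oneC]

end CfsgLib.CosetEnum.Suz.G2
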