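import Cfsg.Agent.CosetEnum.Suz.G2.Images
import Cfsg.Agent.S1059

/-! The subgroup on the first six generators of the Suzuki group is G₂(4). -/

set_option autoImplicit false

namespace CfsgLib.CosetEnum.Suz.G2

theorem card_g2 : Nat.card ↥(Cfsg.Lie.chevG2.group F4) = 251596800 := by
  rw [Cfsg.Agent.S1059.result F4.card_eq]
  norm_num

theorem six_iso : Nonempty (sub 6 ≃* Cfsg.Lie.chevG2.group F4) := by
  have : Finite (Cfsg.Lie.chevG2.group F4) :=
    Nat.finite_of_card_ne_zero (card_g2 ▸ (by decide : (251596800 : ℕ) ≠ 0))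
  exact nonempty_iso sixRels_img img_zero_ne card_g2

/-- the printed generators of the subgroup -/
theorem map_eq_sub_six :
    (Subgroup.closure ({Cfsg.Spor.Suz.a, Cfsg.Spor.Suz.b, Cfsg.Spor.Suz.c, Cfsg.Spor.Suz.d,
      Cfsg.Spor.Suz.e, Cfsg.Spor.Suz.f} : Set (FreeGroup Cfsg.Spor.Suz.Gen))).map
      (PresentedGroup.mk (Cfsg.Spor.coxRelators Cfsg.Spor.Suz.edges ∪
        {r | r ∈ Cfsg.Spor.Suz.extra})) = sub 6 := by
  rw [MonoidHom.map_closure, sub]
  refine congrArg Subgroup.closure (Set.ext fun z => ?_)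
  constructor
  · rintro ⟨r, hr, rfl⟩
    simp only [Set.mem_insert_iff, Set.mem_singleton_iff] at hr
    rcases hr with rfl | rfl | rfl | rfl | rfl | rfl
    exacts [⟨0, by omega, rfl⟩, ⟨1, by omega, rfl⟩, ⟨2, by omega, rfl⟩, ⟨3, by omega, rfl⟩,
      ⟨4, by omega, rfl⟩, ⟨5, by omega, rfl⟩]
  · rintro ⟨x, hx, rfl⟩
    refine ⟨FreeGroup.of (dec x), ?_, rfl⟩
    interval_cases x <;> simp [dec]

theorem exists_field_iso (H : Subgroup Cfsg.Spor.Suz) (h : H = sub 6) :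
    ∃ (K : Type) (_ : Field K) (_ : Fintype K), Fintype.card K = 4 ∧
      Nonempty (H ≃* Cfsg.Lie.chevG2.group K) := by
  obtain ⟨φ⟩ := six_iso
  exact ⟨F4, inferInstance, inferInstance, F4.card_eq, ⟨(MulEquiv.subgroupCongr h).trans φ⟩⟩

end CfsgLib.CosetEnum.Suz.G2
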